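import Cfsg.Agent.Lib.H72.PY

set_option autoImplicit false
set_option linter.style.haveILetI false
set_option linter.unusedSectionVars false

/-! S3814, piece PA step g. -/

namespace H72.PAg

open Subgroup H88.F4 H72.PYa H6.FT H52.FC H72.PY

universe u
variable {G : Type u} [Group G] [Finite G]

theorem norm_of {K P : Subgroup G} (key : ∀ k ∈ K, ∀ a ∈ P, k * a * k⁻¹ ∈ P) :
    K ≤ normalizer (P : Set G) := by
  intro k hk
  rw [Subgroup.mem_normalizer_iff]
  intro a
  refine ⟨key k hk a, fun ha => ?_⟩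
  have := key k⁻¹ (inv_mem hk) _ ha
  have e : k⁻¹ * (k * a * k⁻¹) * k⁻¹⁻¹ = a := by group
  rwa [e] at this

theorem norm_sup {K P1 P2 : Subgroup G} (h1 : K ≤ normalizer (P1 : Set G))
    (h2 : K ≤ normalizer (P2 : Set G)) : K ≤ normalizer ((P1 ⊔ P2 : Subgroup G) : Set G) := by
  apply norm_of
  intro k hk a ha
  have h3 : P1 ⊔ P2 ≤ (P1 ⊔ P2).comap (MulAut.conj k).toMonoidHom := by
    apply sup_le
    · intro b hb
      exact Subgroup.mem_comap.2 (Subgroup.mem_sup_left (mem_norm (h1 hk) hb))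
    · intro b hb
      exact Subgroup.mem_comap.2 (Subgroup.mem_sup_right (mem_norm (h2 hk) hb))
  exact h3 ha

theorem cyc_comm {C : Subgroup G} (h : IsCyclic C) : ∀ c ∈ C, ∀ d ∈ C, Commute c d := by
  intro c hc d hd
  letI := IsCyclic.commGroup (α := C)
  have := mul_comm (⟨c, hc⟩ : C) ⟨d, hd⟩
  exact congrArg Subtype.val this

/-- in a cyclic subgroup, elements of the same prime order generate the same subgroup -/
theorem cyc_mem {r : ℕ} (hr : r.Prime) {C : Subgroup G} (h : IsCyclic C) {x y : G} (hx : x ∈ C)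
    (hy : y ∈ C) (hxo : orderOf x = r) (hyo : orderOf y = r) : y ∈ zpowers x := by
  by_contra hyx
  have hxy : Commute x y := cyc_comm h x hx y hy
  apply pair_not_cyclic hr hxo hyo hxy hyx
  have hle : closure ({x, y} : Set G) ≤ C := by
    rw [closure_le]
    rintro z (rfl | rfl)
    · exact hx
    · exact hy
  haveI := h
  exact isCyclic_of_injective (Subgroup.inclusion hle) (Subgroup.inclusion_injective hle)

/-- coprime action on an abelian `q`-group, trivial on elements of order `q` -/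
theorem coprime_cyc {q s : ℕ} (hq : q.Prime) (hs : s.Prime) (hqs : q ≠ s) (C : Subgroup G)
    (hCa : ∀ c ∈ C, ∀ d ∈ C, Commute c d) (hCp : IsPGroup q C) (y : G) (hy : y ^ s = 1)
    (hyn : ∀ d ∈ C, y * d * y⁻¹ ∈ C) (hz : ∀ c ∈ C, orderOf c = q → Commute c y) :
    ∀ d ∈ C, Commute d y := by
  intro d hd
  by_contra hnc
  set e := y * d * y⁻¹ * d⁻¹ with he
  have heC : e ∈ C := mul_mem (hyn d hd) (inv_mem hd)
  have he1 : e ≠ 1 := by
    intro h1
    apply hnc
    show d * y = y * d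
    calc d * y = e * (d * y) := by rw [h1, one_mul]
      _ = y * d := by rw [he]; group
  haveI := Fact.mk hq
  obtain ⟨m, hm⟩ : ∃ m : ℕ, orderOf e = q ^ m := by
    obtain ⟨m, hm⟩ := (IsPGroup.iff_orderOf.1 hCp) ⟨e, heC⟩
    exact ⟨m, by rw [← hm, ← Subgroup.orderOf_coe]⟩
  have hm0 : m ≠ 0 := by
    rintro rfl
    rw [pow_zero] at hm
    exact he1 (orderOf_eq_one_iff.1 hm)
  obtain ⟨m', rfl⟩ := Nat.exists_eq_succ_of_ne_zero hm0
  set k := q ^ m' with hk
  have hek : orderOf (e ^ k) = q := by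
    have hd1 : k ∣ orderOf e := by rw [hm, hk]; exact pow_dvd_pow q (Nat.le_succ m')
    rw [orderOf_pow_of_dvd (by rw [hk]; exact (pow_pos hq.pos _).ne') hd1, hm, hk, pow_succ]
    exact Nat.mul_div_cancel_left q (pow_pos hq.pos _)
  have heky : Commute (e ^ k) y := hz _ (pow_mem heC k) hek
  have hphi : e ^ k = y * d ^ k * y⁻¹ * (d ^ k)⁻¹ := by
    have hcd : Commute (y * d * y⁻¹) d⁻¹ := (hCa _ (hyn d hd) d hd).inv_right
    rw [he, hcd.mul_pow, conj_pow, inv_pow]
  have hinv : (d ^ k) * y * (d ^ k)⁻¹ * y⁻¹ = (e ^ k)⁻¹ := by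
    rw [hphi]; group
  have h2 : Commute ((d ^ k) * y * (d ^ k)⁻¹ * y⁻¹) y := by
    rw [hinv]; exact heky.inv_left
  have h3 := comm_pow hy h2
  rw [hinv, inv_pow, inv_eq_one] at h3
  have h4 := comm_pgroup_eq_one hq hs hqs hCp (pow_mem heC k) h3
  exact ne_one_of_order hq hek h4

theorem pag {p : ℕ} {τ : Finset ℕ} {V K : Subgroup G} (h : Env p τ V K) {q r : ℕ} (hq : q ∈ τ)
    (hr : r ∈ τ) (hqr : q ≠ r) (n : G) (hn : n ∈ K) (hno : orderOf n = q)
    (hKn : K ≤ normalizer (zpowers n : Set G))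
    (hQ : ∀ Q ≤ K, K ≤ normalizer (Q : Set G) → IsPGroup q Q → IsCyclic Q)
    (hR : ∀ R ≤ K, K ≤ normalizer (R : Set G) → IsPGroup r R → IsCyclic R)
    (htriv : ∀ t : ℕ, t.Prime → t ≠ q → t ≠ r → ∀ P ≤ K, K ≤ normalizer (P : Set G) →
      IsPGroup t P → P = ⊥) : r ∣ q - 1 := by
  have hqp := (h.hτp q hq).1
  have hrp := (h.hτp r hr).1
  obtain ⟨x, hx, hxo, hxP⟩ : ∃ x ∈ K, orderOf x = r ∧ ∀ P ≤ K, K ≤ normalizer (P : Set G) →
      IsPGroup r P → x ∉ P := by
    obtain ⟨x, hx, y, hy, hxo, hyo, hxy, hyx⟩ := h.r2 r hr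
    by_cases c1 : ∀ P ≤ K, K ≤ normalizer (P : Set G) → IsPGroup r P → x ∉ P
    · exact ⟨x, hx, hxo, c1⟩
    · refine ⟨y, hy, hyo, fun P2 hP2 hP2n hP2p hyP => c1 fun P1 hP1 hP1n hP1p hxP => hyx ?_⟩
      have hc := hR (P1 ⊔ P2) (sup_le hP1 hP2) (norm_sup hP1n hP2n)
        (IsPGroup.to_sup_of_normal_right' hP1p hP2p (hP1.trans hP2n))
      exact cyc_mem hrp hc (Subgroup.mem_sup_left hxP) (Subgroup.mem_sup_right hyP) hxo hyo
  have hxr : x ^ r = 1 := by rw [← hxo]; exact pow_orderOf_eq_one x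
  apply dvd_sub_one hqp hrp hno hxo (mem_norm (hKn hx) (mem_zpowers n))
  intro hxn
  obtain ⟨P, hP, hPn, hPp, hxmem⟩ := fc K h.solv x hx (by rw [hxo]; exact hrp) (by
    intro t ht htr P hP hPn hPp w hw
    rw [hxo] at htr
    by_cases htq : t = q
    · rw [htq] at hPp
      have hQp : IsPGroup q (P ⊔ zpowers n : Subgroup G) :=
        IsPGroup.to_sup_of_normal_right' hPp (zpowers_pgroup hqp hno) (hP.trans hKn)
      have hQK : P ⊔ zpowers n ≤ K := sup_le hP (by rw [zpowers_le]; exact hn)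
      have hQn := norm_sup hPn hKn
      have hc := hQ _ hQK hQn hQp
      have := coprime_cyc hqp hrp hqr (P ⊔ zpowers n) (cyc_comm hc) hQp x hxr
        (fun d hd => mem_norm (hQn hx) hd) (by
          intro c hcm hco
          have h1 := cyc_mem hqp hc (Subgroup.mem_sup_right (mem_zpowers n)) hcm hno hco
          obtain ⟨j, hj⟩ := Subgroup.mem_zpowers_iff.1 h1
          rw [← hj]
          exact (hxn.zpow_right j).symm) w (Subgroup.mem_sup_left hw)
      exact this.symm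
    · have := htriv t ht htq htr P hP hPn hPp
      rw [this] at hw
      rw [Subgroup.mem_bot.1 hw]
      exact Commute.one_right _) (by
    rw [hxo]; exact fun P hP hPn hPp => hR P hP hPn hPp)
  rw [hxo] at hPp
  exact hxP P hP hPn hPp hxmem

end H72.PAg
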